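import Cfsg.Agent.H445.AH.OFin
import Cfsg.Agent.H105.SzSp8

/-!
# S2451 (C), symplectic groups, odd characteristic (helper445)

`sp_odd` : nonscalar isometries `a`, `b` of a symplectic space of dimension `≥ 4` over a finite field of odd
characteristic: the products `a (g b g⁻¹)` cannot all be unipotent up to sign. Trace method: `Wid`.
-/

set_option autoImplicit false
set_option linter.unusedSectionVars false

namespace Cfsg.Agent.H445.AH.Symp

open Module Cfsg.Agent.H955 Cfsg.Agent.H105.Sz Cfsg.Agent.H105.SzSp Cfsg.Agent.H445.AH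

variable {F V : Type*} [Field F] [AddCommGroup V] [Module F V] {B : LinearMap.BilinForm F V}

/-- all products are unipotent up to sign -/
def AllS (B : LinearMap.BilinForm F V) (a b : V ≃ₗ[F] V) : Prop :=
  ∀ g ∈ IsoB B, ∃ ε : F, (ε = 1 ∨ ε = -1) ∧ Uni (a * (g * b * g⁻¹)) ε

theorem AllS.symm {a b : V ≃ₗ[F] V} (h : AllS B a b) : AllS B b a := by
  intro g hg
  obtain ⟨ε, hε, hu⟩ := h g⁻¹ ((IsoB B).inv_mem hg)
  refine ⟨ε, hε, ?_⟩
  have h1 := hu.conj (g * a⁻¹)
  have e : g * a⁻¹ * (a * (g⁻¹ * b * g⁻¹⁻¹)) * (g * a⁻¹)⁻¹ = b * (g * a * g⁻¹) := by group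
  rwa [e] at h1

/-- totally isotropic pairs -/
structure TI2 (B : LinearMap.BilinForm F V) (u v : V) : Prop where
  ind : LinearIndependent F ![u, v]
  perp : B u v = 0

theorem TI2.symm (h : IsSp B) {u v : V} (huv : TI2 B u v) : TI2 B v u := by
  refine ⟨?_, by rw [h.swap, huv.perp, neg_zero]⟩
  have h1 := huv.ind
  rw [LinearIndependent.pair_iff] at h1 ⊢
  intro s t hst
  have h2 := h1 t s (by rw [← hst]; abel)
  exact ⟨h2.2, h2.1⟩

theorem TI2.add (h : IsSp B) {u v : V} (huv : TI2 B u v) (s : F) : TI2 B u (v + s • u) := by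
  refine ⟨?_, by rw [map_add, map_smul, h.alt, huv.perp, smul_zero, add_zero]⟩
  have h1 := huv.ind
  rw [LinearIndependent.pair_iff] at h1 ⊢
  intro c d hcd
  have h2 := h1 (c + d * s) d (by rw [← hcd]; module)
  refine ⟨?_, h2.2⟩
  have h3 := h2.1
  rw [h2.2, zero_mul, add_zero] at h3
  exact h3

theorem TI2.ne_left {u v : V} (huv : TI2 B u v) : u ≠ 0 := by
  rintro rfl
  have h1 := huv.ind
  rw [LinearIndependent.pair_iff] at h1
  have h2 := (h1 1 0 (by simp)).1
  exact one_ne_zero h2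

/-- a vector in the double perp of `v` -/
theorem mem_of_perp (h : IsSp B) {v w : V} (hv : v ≠ 0) (hp : ∀ u, B u v = 0 → B u w = 0) : ∃ c : F, w = c • v := by
  obtain ⟨u0, hu0⟩ : ∃ u, B u v ≠ 0 := by
    by_contra hc
    push Not at hc
    apply hv
    apply h.nd
    intro y
    rw [h.swap, hc, neg_zero]
  refine ⟨B u0 w / B u0 v, ?_⟩
  have h1 : ∀ u, B u (w - (B u0 w / B u0 v) • v) = 0 := by
    intro u
    have h2 := hp (u - (B u v / B u0 v) • u0) (by
      rw [map_sub, map_smul, LinearMap.sub_apply, LinearMap.smul_apply, smul_eq_mul]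
      field_simp
      ring)
    rw [map_sub, map_smul, LinearMap.sub_apply, LinearMap.smul_apply, smul_eq_mul] at h2
    rw [map_sub, map_smul, smul_eq_mul]
    have h3 : B u w = B u v / B u0 v * B u0 w := sub_eq_zero.1 h2
    rw [h3]
    field_simp
    ring
  have h2 : w - (B u0 w / B u0 v) • v = 0 := by
    apply h.nd
    intro y
    rw [h.swap, h1, neg_zero]
  exact sub_eq_zero.1 h2

theorem B_inv {a : V ≃ₗ[F] V} (ha : a ∈ IsoB B) (u v : V) : B u (a⁻¹ v) = B (a u) v := by
  have h1 := ha u (a⁻¹ v)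
  have h2 : a (a⁻¹ v) = v := LinearEquiv.apply_symm_apply a v
  rw [h2] at h1
  exact h1.symm

theorem B_inv' {a : V ≃ₗ[F] V} (ha : a ∈ IsoB B) (u v : V) : B (a⁻¹ u) v = B u (a v) := by
  have h1 := ha (a⁻¹ u) v
  have h2 : a (a⁻¹ u) = u := LinearEquiv.apply_symm_apply a u
  rw [h2] at h1
  exact h1.symm

/-- symmetric on totally isotropic pairs: `a + a⁻¹` is a scalar -/
theorem kappa (h : IsSp B) {a : V ≃ₗ[F] V} (ha : a ∈ IsoB B) (hk : ∀ u v, TI2 B u v → B u (a v) = B v (a u)) :
    ∃ κ : F, ∀ v, a v + a⁻¹ v = κ • v := by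
  obtain ⟨κ, hκ⟩ := scalar_of_all' (a := (a : V →ₗ[F] V) + ((a⁻¹ : V ≃ₗ[F] V) : V →ₗ[F] V)) (by
    intro v
    by_cases hv : v = 0
    · exact ⟨0, by rw [hv]; simp⟩
    apply mem_of_perp h hv
    intro u huv
    change B u (a v + a⁻¹ v) = 0
    rw [map_add, B_inv ha, h.swap (a u) v]
    by_cases hi : LinearIndependent F ![u, v]
    · rw [hk u v ⟨hi, huv⟩, add_neg_cancel]
    · have hi' : ¬ LinearIndependent F ![v, u] := by
        intro h1
        apply hi
        rw [LinearIndependent.pair_iff] at h1 ⊢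
        intro s t hst
        have h2 := h1 t s (by rw [← hst]; abel)
        exact ⟨h2.2, h2.1⟩
      rw [LinearIndependent.pair_iff' hv] at hi'
      push Not at hi'
      obtain ⟨c, rfl⟩ := hi'
      rw [map_smul, map_smul, LinearMap.smul_apply, map_smul, add_neg_cancel])
  exact ⟨κ, hκ⟩

/-- vanishing on totally isotropic pairs: scalar -/
theorem scalar_of_TI [FiniteDimensional F V] (h : IsSp B) {a : V ≃ₗ[F] V} (hk : ∀ u v, TI2 B u v → B u (a v) = 0)
    (hq : ∀ v, B v (a v) = 0) : Scalar a := by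
  apply scalar_of_all
  intro v
  by_cases hv : v = 0
  · exact ⟨0, by rw [hv]; simp⟩
  apply mem_of_perp h hv
  intro u huv
  by_cases hi : LinearIndependent F ![u, v]
  · exact hk u v ⟨hi, huv⟩
  · have hi' : ¬ LinearIndependent F ![v, u] := by
      intro h1
      apply hi
      rw [LinearIndependent.pair_iff] at h1 ⊢
      intro s t hst
      have h2 := h1 t s (by rw [← hst]; abel)
      exact ⟨h2.2, h2.1⟩
    rw [LinearIndependent.pair_iff' hv] at hi'
    push Not at hi'
    obtain ⟨c, rfl⟩ := hi'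
    rw [map_smul, LinearMap.smul_apply, hq, smul_zero]

/-! ### The trace -/

/-- the nilpotent map -/
def nl (B : LinearMap.BilinForm F V) (u v : V) (s t : F) : V →ₗ[F] V :=
  s • (B u).smulRight u + t • (B v).smulRight v

theorem nl_apply (u v : V) (s t : F) (x : V) : nl B u v s t x = s • B u x • u + t • B v x • v := rfl

theorem trace_nl [FiniteDimensional F V] (a b : V →ₗ[F] V) (u v : V) (s t : F) :
    LinearMap.trace F V (a ∘ₗ (LinearMap.id + nl B u v s t) ∘ₗ b ∘ₗ (LinearMap.id - nl B u v s t)) =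
      LinearMap.trace F V (a ∘ₗ b) + (B u (b (a u)) - B u (a (b u))) * s + (B v (b (a v)) - B v (a (b v))) * t -
        ((B u (b u) * B u (a u)) * s ^ 2 + (B v (b u) * B u (a v) + B u (b v) * B v (a u)) * s * t +
          (B v (b v) * B v (a v)) * t ^ 2) := by
  have e : a ∘ₗ (LinearMap.id + nl B u v s t) ∘ₗ b ∘ₗ (LinearMap.id - nl B u v s t) =
      a ∘ₗ b + (s • (B u ∘ₗ b).smulRight (a u) + t • (B v ∘ₗ b).smulRight (a v)) -
        (s • (B u).smulRight (a (b u)) + t • (B v).smulRight (a (b v))) -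
        ((s * s * B u (b u)) • (B u).smulRight (a u) + (s * t * B v (b u)) • (B u).smulRight (a v) +
          (s * t * B u (b v)) • (B v).smulRight (a u) + (t * t * B v (b v)) • (B v).smulRight (a v)) := by
    ext x
    simp only [LinearMap.comp_apply, LinearMap.add_apply, LinearMap.sub_apply, LinearMap.id_apply,
      LinearMap.smulRight_apply, LinearMap.smul_apply, nl_apply, map_add, map_sub, map_smul]
    module
  rw [e]
  simp only [map_sub, map_add, map_smul, LinearMap.trace_smulRight, LinearMap.comp_apply, smul_eq_mul]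
  ring

theorem tt_eq (h : IsSp B) {u v : V} (huv : B u v = 0) (s t : F) :
    ((tv h u s * tv h v t : V ≃ₗ[F] V) : V →ₗ[F] V) = LinearMap.id + nl B u v s t := by
  ext x
  change tv h u s (tv h v t x) = x + nl B u v s t x
  rw [nl_apply, tv_apply, tv_apply, map_add, map_smul, map_smul, huv]
  simp only [smul_zero, add_zero]
  module

theorem tt_inv_eq (h : IsSp B) {u v : V} (huv : B u v = 0) (s t : F) :
    (((tv h u s * tv h v t)⁻¹ : V ≃ₗ[F] V) : V →ₗ[F] V) = LinearMap.id - nl B u v s t := by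
  ext x
  have e : (tv h u s * tv h v t)⁻¹ x = (tv h v t)⁻¹ ((tv h u s)⁻¹ x) := by
    rw [mul_inv_rev]
    rfl
  change (tv h u s * tv h v t)⁻¹ x = x - nl B u v s t x
  have hvu : B v u = 0 := by rw [h.swap, huv, neg_zero]
  rw [e, nl_apply, tv_inv_apply, tv_inv_apply, map_sub, map_smul, map_smul, hvu]
  simp only [smul_zero, sub_zero]
  module

theorem B_conj {g : V ≃ₗ[F] V} (hg : g ∈ IsoB B) (b : V ≃ₗ[F] V) (x y : V) :
    B (g x) ((g * b * g⁻¹) (g y)) = B x (b y) := by
  have e : (g * b * g⁻¹) (g y) = g (b y) := by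
    show g (b (g.symm (g y))) = _
    rw [LinearEquiv.symm_apply_apply]
  rw [e, hg]

section Fin

variable [Finite F] [FiniteDimensional F V] {a b : V ≃ₗ[F] V}

theorem AllS.tr (h : AllS B a b) {g : V ≃ₗ[F] V} (hg : g ∈ IsoB B) :
    tr2 a (g * b * g⁻¹) = (finrank F V : F) ∨ tr2 a (g * b * g⁻¹) = -(finrank F V : F) := by
  obtain ⟨ε, hε, hu⟩ := h g hg
  rw [hu.trace]
  rcases hε with rfl | rfl
  · left
    ring
  · right
    ring

/-- **The identity (W).** -/
theorem Wid (h2 : (2 : F) ≠ 0) (h : IsSp B) (hA : AllS B a b) {u v x y : V} (huv : TI2 B u v) (hxy : TI2 B x y) :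
    (B y (b x) * B u (a v) + B x (b y) * B v (a u)) ^ 2 =
      4 * (B x (b x) * B u (a u)) * (B y (b y) * B v (a v)) := by
  obtain ⟨g, hg, rfl, rfl⟩ := witt_pair h hxy.ind huv.ind (by rw [huv.perp, hxy.perp])
  have key : ∀ s t : F,
      tr2 a (g * b * g⁻¹) + (B (g x) ((g * b * g⁻¹) (a (g x))) - B (g x) (a ((g * b * g⁻¹) (g x)))) * s +
        (B (g y) ((g * b * g⁻¹) (a (g y))) - B (g y) (a ((g * b * g⁻¹) (g y)))) * t -
        ((B x (b x) * B (g x) (a (g x))) * s ^ 2 +
          (B y (b x) * B (g x) (a (g y)) + B x (b y) * B (g y) (a (g x))) * s * t +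
          (B y (b y) * B (g y) (a (g y))) * t ^ 2) =
      tr2 a ((tv h (g x) s * tv h (g y) t * g) * b * (tv h (g x) s * tv h (g y) t * g)⁻¹) := by
    intro s t
    have h1 := trace_nl (B := B) (a : V →ₗ[F] V) ((g * b * g⁻¹ : V ≃ₗ[F] V) : V →ₗ[F] V) (g x) (g y) s t
    have e : tr2 a ((tv h (g x) s * tv h (g y) t * g) * b * (tv h (g x) s * tv h (g y) t * g)⁻¹) =
        LinearMap.trace F V ((a : V →ₗ[F] V) ∘ₗ (LinearMap.id + nl B (g x) (g y) s t) ∘ₗ
          ((g * b * g⁻¹ : V ≃ₗ[F] V) : V →ₗ[F] V) ∘ₗ (LinearMap.id - nl B (g x) (g y) s t)) := by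
      rw [tr2, ← tt_eq h huv.perp, ← tt_inv_eq h huv.perp]
      congr 1
    rw [e, h1]
    have e2 : ∀ p q : V, B (g p) (((g * b * g⁻¹ : V ≃ₗ[F] V) : V →ₗ[F] V) (g q)) = B p (b q) := fun p q => B_conj hg b p q
    rw [e2, e2, e2, e2]
    rfl
  refine NZ h2 (n := (finrank F V : F)) (c := tr2 a (g * b * g⁻¹))
    (a1 := B (g x) ((g * b * g⁻¹) (a (g x))) - B (g x) (a ((g * b * g⁻¹) (g x))))
    (a2 := B (g y) ((g * b * g⁻¹) (a (g y))) - B (g y) (a ((g * b * g⁻¹) (g y)))) (fun s t => ?_)
  rw [key s t]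
  exact hA.tr ((IsoB B).mul_mem ((IsoB B).mul_mem (tv_mem h _ _) (tv_mem h _ _)) hg)

/-- one of the forms not zero: the other one has rank one on totally isotropic planes -/
theorem sq_id (h2 : (2 : F) ≠ 0) (h : IsSp B) (hn : 4 ≤ finrank F V) (hA : AllS B a b) {u : V} (hu : B u (a u) ≠ 0)
    {x y : V} (hxy : TI2 B x y) : (B x (b y) + B y (b x)) ^ 2 = 4 * (B x (b x) * B y (b y)) := by
  have hu0 : u ≠ 0 := by
    rintro rfl
    simp at hu
  obtain ⟨v, hv, hv'⟩ := exists_notMem (W := Submodule.span F {u}) (W' := LinearMap.ker (B u)) (by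
    have h1 := finrank_span_single_le (F := F) u
    have h3 := finrank_ker h hu0
    omega)
  have huv : TI2 B u v := ⟨indep_of_notMem hu0 hv', hv⟩
  have w0 := Wid h2 h hA huv hxy
  have w1 := Wid h2 h hA (huv.add h 1) hxy
  have w2 := Wid h2 h hA (huv.add h (-1)) hxy
  simp only [map_add, map_smul, LinearMap.add_apply, LinearMap.smul_apply, smul_eq_mul] at w1 w2
  have h3 : 2 * (B u (a u)) ^ 2 * ((B x (b y) + B y (b x)) ^ 2 - 4 * (B x (b x) * B y (b y))) = 0 := by
    linear_combination w1 + w2 - 2 * w0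
  rcases mul_eq_zero.1 h3 with h4 | h4
  · exact absurd h4 (mul_ne_zero h2 (pow_ne_zero 2 hu))
  · exact sub_eq_zero.1 h4

/-- the skew parts -/
theorem skew_prod (h2 : (2 : F) ≠ 0) (h : IsSp B) (hn : 4 ≤ finrank F V) (hA : AllS B a b) {u0 x0 : V}
    (hu0 : B u0 (a u0) ≠ 0) (hx0 : B x0 (b x0) ≠ 0) {u v x y : V} (huv : TI2 B u v) (hxy : TI2 B x y) :
    (B u (a v) - B v (a u)) * (B x (b y) - B y (b x)) = 0 := by
  have w0 := Wid h2 h hA huv hxy
  have w1 := Wid h2 h hA huv (hxy.symm h)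
  have sb := sq_id h2 h hn hA hu0 hxy
  have sa := sq_id h2 h hn hA.symm hx0 huv
  have h3 : ((B u (a v) - B v (a u)) * (B x (b y) - B y (b x))) ^ 2 = 0 := by
    linear_combination 2 * w0 + 2 * w1 - (B x (b y) + B y (b x)) ^ 2 * sa - 4 * (B u (a u) * B v (a v)) * sb
  exact pow_eq_zero_iff (two_ne_zero) |>.1 h3

/-! ### One form zero -/

theorem exists_perp2 (hn : 4 ≤ finrank F V) (f g : V →ₗ[F] F) : ∃ v : V, v ≠ 0 ∧ f v = 0 ∧ g v = 0 := by
  have h1 : LinearMap.ker (f.prod g) ≠ ⊥ := by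
    apply LinearMap.ker_ne_bot_of_finrank_lt
    rw [Module.finrank_prod, Module.finrank_self]
    omega
  obtain ⟨v, hv, hv0⟩ := (Submodule.ne_bot_iff _).1 h1
  have h3 : (f v, g v) = 0 := hv
  exact ⟨v, hv0, (Prod.ext_iff.1 h3).1, (Prod.ext_iff.1 h3).2⟩

theorem kappa_of_alt (h2 : (2 : F) ≠ 0) (h : IsSp B) (hA : AllS B a b) (ha : a ∈ IsoB B)
    (hb0 : ∀ v, B v (b v) = 0) (hnsb : ¬ Scalar b) : (∃ κ : F, ∀ v, a v + a⁻¹ v = κ • v) ∧
      ∀ u v, TI2 B u v → B u (a v) = B v (a u) := by
  obtain ⟨x, y, hxy, hne⟩ : ∃ x y, TI2 B x y ∧ B x (b y) ≠ 0 := by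
    by_contra hc
    push Not at hc
    exact hnsb (scalar_of_TI h hc hb0)
  have key : ∀ u v, TI2 B u v → B u (a v) = B v (a u) := by
    intro u v huv
    have w := Wid h2 h hA huv hxy
    have h3 := alt_swap h (f := (b : V →ₗ[F] V)) hb0 y x
    change B y (b x) = B (b y) x at h3
    rw [h.swap (b y) x] at h3
    rw [hb0, hb0, h3] at w
    have h4 : (B x (b y) * (B v (a u) - B u (a v))) ^ 2 = 0 := by linear_combination w
    have h5 := pow_eq_zero_iff (two_ne_zero) |>.1 h4
    exact (sub_eq_zero.1 ((mul_eq_zero.1 h5).resolve_left hne)).symm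
  exact ⟨kappa h ha key, key⟩

theorem conj_apply (g b : V ≃ₗ[F] V) (x : V) : (g * b * g⁻¹) (g x) = g (b x) := by
  show g (b (g.symm (g x))) = _
  rw [LinearEquiv.symm_apply_apply]

theorem caseIII (h2 : (2 : F) ≠ 0) (h : IsSp B) (hA : AllS B a b) (ha : a ∈ IsoB B)
    (ha0 : ∀ v, B v (a v) = 0) (hb0 : ∀ v, B v (b v) = 0) (hnsa : ¬ Scalar a) (hnsb : ¬ Scalar b) : False := by
  obtain ⟨-, hk⟩ := kappa_of_alt h2 h hA ha hb0 hnsb
  apply hnsa
  apply scalar_of_TI h _ ha0
  intro u v huv
  have h3 := alt_swap h (f := (a : V →ₗ[F] V)) ha0 u v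
  change B u (a v) = B (a u) v at h3
  rw [h.swap (a u) v, ← hk u v huv] at h3
  have h4 : 2 * B u (a v) = 0 := by linear_combination h3
  exact (mul_eq_zero.1 h4).resolve_left h2

theorem caseII (h2 : (2 : F) ≠ 0) (h : IsSp B) (hn : 4 ≤ finrank F V) (hA : AllS B a b) (ha : a ∈ IsoB B)
    (hb : b ∈ IsoB B) {u : V} (hu : B u (a u) ≠ 0) (hb0 : ∀ v, B v (b v) = 0) (hnsb : ¬ Scalar b) : False := by
  have hbb := sq_one h hb hb0
  obtain ⟨⟨κ, hκ⟩, -⟩ := kappa_of_alt h2 h hA ha hb0 hnsb
  obtain ⟨e1, he1, hb1⟩ : ∃ e1, e1 ≠ 0 ∧ b e1 = e1 := by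
    by_contra hc
    push Not at hc
    apply hnsb
    refine ⟨-1, fun v => ?_⟩
    by_contra hv
    refine hc (v + b v) ?_ (by rw [map_add, hbb, add_comm])
    intro h3
    apply hv
    rw [neg_smul, one_smul]
    exact eq_neg_of_add_eq_zero_right h3
  obtain ⟨e2, he2, hb2⟩ : ∃ e2, e2 ≠ 0 ∧ b e2 = -e2 := by
    by_contra hc
    push Not at hc
    apply hnsb
    refine ⟨1, fun v => ?_⟩
    by_contra hv
    refine hc (v - b v) ?_ (by rw [map_sub, hbb, neg_sub])
    intro h3
    apply hv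
    rw [one_smul]
    exact (sub_eq_zero.1 h3).symm
  obtain ⟨y, hy⟩ : ∃ y, B e1 y ≠ 0 := by
    by_contra hc
    push Not at hc
    exact he1 (h.nd _ hc)
  have hy1 : B e1 (y + b y) = 2 * B e1 y := by
    have h3 := hb e1 y
    rw [hb1] at h3
    rw [map_add, h3]
    ring
  have hy2 : B e1 (y + b y) ≠ 0 := by
    rw [hy1]
    exact mul_ne_zero h2 hy
  set f1 := (B u (a u) / B e1 (y + b y)) • (y + b y) with hf1
  have hbf : b f1 = f1 := by
    rw [hf1, map_smul b, map_add b, hbb, add_comm (b y) y]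
  have hef : B e1 f1 = B u (a u) := by
    rw [hf1, map_smul, smul_eq_mul]
    field_simp
  obtain ⟨g, hg, hg1, hg2⟩ := witt_pair h (v := e1) (w := f1) (v' := u) (w' := a u)
    (indep_of_ne h (by rw [hef]; exact hu)) (indep_of_ne h hu) hef
  obtain ⟨ε, hε, hU⟩ := hA g hg
  have hεε : ε * ε = 1 := by rcases hε with rfl | rfl <;> ring
  have haa : ∀ v, a (a v) = κ • a v - v := fun v => kappa_apply hκ v
  have hz1 : (a * (g * b * g⁻¹)) u = a u := by
    rw [LinearEquiv.mul_apply]
    have h3 : (g * b * g⁻¹) u = u := by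
      rw [← hg1, conj_apply, hb1]
    rw [h3]
  have hz2 : (a * (g * b * g⁻¹)) (a u) = a (a u) := by
    rw [LinearEquiv.mul_apply]
    have h3 : (g * b * g⁻¹) (a u) = a u := by
      rw [← hg2, conj_apply, hbf]
    rw [h3]
  have hu0 : u ≠ 0 := by
    rintro rfl
    simp at hu
  have hκε := hU.quad hεε hu0 (κ := κ) (by rw [hz1, hz2, haa])
  subst hκε
  have hu1 : a u - ε • u ≠ 0 := by
    intro h3
    apply hu
    have h4 : B u (a u - ε • u) = 0 := by rw [h3, map_zero]
    rw [map_sub, map_smul, h.alt, smul_zero, sub_zero] at h4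
    exact h4
  have hau1 : a (a u - ε • u) = ε • (a u - ε • u) := by
    rw [map_sub, map_smul, haa]
    have h3 : u = (ε * ε) • u := by rw [hεε, one_smul]
    nth_rw 2 [h3]
    module
  -- the kernel of `a - ε`
  have hker : 2 ≤ finrank F (LinearMap.ker ((a : V →ₗ[F] V) - ε • LinearMap.id)) := by
    have h3 := LinearMap.finrank_range_add_finrank_ker ((a : V →ₗ[F] V) - ε • LinearMap.id)
    have h4 : LinearMap.range ((a : V →ₗ[F] V) - ε • LinearMap.id) ≤
        LinearMap.ker ((a : V →ₗ[F] V) - ε • LinearMap.id) := by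
      rintro _ ⟨v, rfl⟩
      change a (a v - ε • v) - ε • (a v - ε • v) = 0
      rw [map_sub, map_smul, haa]
      have h5 : v = (ε * ε) • v := by rw [hεε, one_smul]
      nth_rw 2 [h5]
      module
    have h5 := Submodule.finrank_mono h4
    omega
  obtain ⟨e', he', he''⟩ := exists_notMem (W := Submodule.span F {a u - ε • u})
    (W' := LinearMap.ker ((a : V →ₗ[F] V) - ε • LinearMap.id)) (by
      have h3 := finrank_span_single_le (F := F) (a u - ε • u)
      omega)
  have hae : a e' = ε • e' := by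
    have h3 : a e' - ε • e' = 0 := he'
    exact sub_eq_zero.1 h3
  have hperp : B (a u - ε • u) e' = 0 := by
    have h3 := ha u e'
    rw [hae, map_smul, smul_eq_mul] at h3
    rw [map_sub, map_smul, LinearMap.sub_apply, LinearMap.smul_apply, smul_eq_mul]
    linear_combination ε * h3 - B (a u) e' * hεε
  have hi12 : LinearIndependent F ![e1, e2] := by
    rw [LinearIndependent.pair_iff]
    intro s t hst
    have h3 : s • e1 - t • e2 = 0 := by
      have h4 : b (s • e1 + t • e2) = 0 := by rw [hst, map_zero]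
      rw [map_add, map_smul, map_smul, hb1, hb2, smul_neg] at h4
      rw [sub_eq_add_neg]
      exact h4
    have h5 : (2 * s) • e1 = 0 := by
      have : (2 * s) • e1 = (s • e1 + t • e2) + (s • e1 - t • e2) := by module
      rw [this, hst, h3, add_zero]
    have h6 : (2 * t) • e2 = 0 := by
      have : (2 * t) • e2 = (s • e1 + t • e2) - (s • e1 - t • e2) := by module
      rw [this, hst, h3, sub_zero]
    exact ⟨(mul_eq_zero.1 ((smul_eq_zero.1 h5).resolve_right he1)).resolve_left h2,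
      (mul_eq_zero.1 ((smul_eq_zero.1 h6).resolve_right he2)).resolve_left h2⟩
  have hp12 : B e1 e2 = 0 := by
    have h3 := hb e1 e2
    rw [hb1, hb2, map_neg] at h3
    have h4 : 2 * B e1 e2 = 0 := by linear_combination -h3
    exact (mul_eq_zero.1 h4).resolve_left h2
  obtain ⟨k, hk, hk1, hk2⟩ := witt_pair h (v := e1) (w := e2) (v' := a u - ε • u) (w' := e') hi12
    (indep_of_notMem hu1 he'') (by rw [hp12, hperp])
  obtain ⟨ε', hε', hU'⟩ := hA k hk
  have he0 : e' ≠ 0 := by
    rintro rfl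
    exact he'' (Submodule.zero_mem _)
  have h3 := hU'.eigen hu1 (l := ε) (by
    rw [LinearEquiv.mul_apply]
    have h4 : (k * b * k⁻¹) (a u - ε • u) = a u - ε • u := by rw [← hk1, conj_apply, hb1]
    rw [h4, hau1])
  have h4 := hU'.eigen he0 (l := -ε) (by
    rw [LinearEquiv.mul_apply]
    have h5 : (k * b * k⁻¹) e' = -e' := by rw [← hk2, conj_apply, hb2, map_neg]
    rw [h5, map_neg, hae, neg_smul])
  have h5 : 2 * ε = 0 := by linear_combination h3 - h4
  rcases mul_eq_zero.1 h5 with h6 | h6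
  · exact h2 h6
  · rw [h6, mul_zero] at hεε
    exact zero_ne_one hεε

/-! ### Both forms nonzero -/

/-- the structure of `a` : a transvection up to sign -/
theorem transv_struct (h2 : (2 : F) ≠ 0) (h : IsSp B) (hn : 4 ≤ finrank F V) (ha : a ∈ IsoB B) {κ : F}
    (hκ : ∀ v, a v + a⁻¹ v = κ • v)
    (sa : ∀ u v, TI2 B u v → (B u (a v) + B v (a u)) ^ 2 = 4 * (B u (a u) * B v (a v))) {u : V}
    (hu : B u (a u) ≠ 0) :
    ∃ (c μ : F) (w : V), c * c = 1 ∧ μ ≠ 0 ∧ w ≠ 0 ∧ ∀ x, a x = c • x + (μ * B w x) • w := by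
  have haa : ∀ v, a (a v) = κ • a v - v := fun v => kappa_apply hκ v
  have hai : ∀ v, a⁻¹ v = κ • v - a v := fun v => by rw [← hκ v, add_sub_cancel_left]
  have hau : B (a u) u = -B u (a u) := h.swap _ _
  -- eigenvectors
  have heig : ∀ v, B u v = 0 → B (a u) v = 0 → ∃ c : F, a v = c • v := by
    intro v huv hauv
    by_cases hv : v = 0
    · exact ⟨0, by rw [hv]; simp⟩
    have hti : TI2 B u v := by
      refine ⟨?_, huv⟩
      rw [LinearIndependent.pair_iff]
      intro s t hst
      have h3 : B (a u) (s • u + t • v) = 0 := by rw [hst, map_zero]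
      rw [map_add, map_smul, map_smul, hauv, smul_zero, add_zero, smul_eq_mul, hau] at h3
      have hs : s = 0 := by
        rcases mul_eq_zero.1 h3 with h4 | h4
        · exact h4
        · exact absurd (neg_eq_zero.1 h4) hu
      refine ⟨hs, ?_⟩
      rw [hs, zero_smul, zero_add] at hst
      exact (smul_eq_zero.1 hst).resolve_right hv
    have hqv : B v (a v) = 0 := by
      have h3 := sa u v hti
      have h4 : B u (a v) = 0 := by
        rw [← B_inv' ha, hai, map_sub, map_smul, LinearMap.sub_apply, LinearMap.smul_apply, huv, hauv, smul_zero,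
          sub_zero]
      have h5 : B v (a u) = 0 := by rw [h.swap, hauv, neg_zero]
      rw [h4, h5, add_zero, zero_pow two_ne_zero] at h3
      have h4' : (4 : F) ≠ 0 := by
        have : (4 : F) = 2 * 2 := by norm_num
        rw [this]
        exact mul_ne_zero h2 h2
      exact (mul_eq_zero.1 ((mul_eq_zero.1 h3.symm).resolve_left h4')).resolve_left hu
    apply mem_of_perp h hv
    intro w hwv
    by_cases hi : LinearIndependent F ![v, w]
    · have hvw : B v w = 0 := by rw [h.swap, hwv, neg_zero]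
      have h3 := sa v w ⟨hi, hvw⟩
      rw [hqv, zero_mul, mul_zero] at h3
      have h4 := pow_eq_zero_iff (two_ne_zero) |>.1 h3
      have h5 : B v (a w) = B w (a v) := by
        rw [← B_inv' ha, h.swap, hai, map_sub, map_smul, hwv, smul_zero, zero_sub, neg_neg]
      rw [h5] at h4
      have h6 : 2 * B w (a v) = 0 := by linear_combination h4
      exact (mul_eq_zero.1 h6).resolve_left h2
    · rw [LinearIndependent.pair_iff' hv] at hi
      push Not at hi
      obtain ⟨t, rfl⟩ := hi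
      rw [map_smul, LinearMap.smul_apply, hqv, smul_zero]
  -- the projection
  have hproj : ∀ x, ∃ (α β : F) (v : V), x = v + α • u + β • a u ∧ B u v = 0 ∧ B (a u) v = 0 ∧
      β = B u x / B u (a u) ∧ α = -(B (a u) x / B u (a u)) := by
    intro x
    refine ⟨-(B (a u) x / B u (a u)), B u x / B u (a u),
      x + (B (a u) x / B u (a u)) • u - (B u x / B u (a u)) • a u, by module, ?_, ?_, rfl, rfl⟩
    · rw [map_sub, map_add, map_smul, map_smul, h.alt, smul_zero, add_zero, smul_eq_mul]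
      field_simp
      ring
    · rw [map_sub, map_add, map_smul, map_smul, h.alt, hau, smul_zero, sub_zero, smul_eq_mul]
      field_simp
      ring
  -- the eigenvalue
  have hval : ∀ v, v ≠ 0 → B u v = 0 → B (a u) v = 0 → ∀ c : F, a v = c • v → c * c = 1 ∧ κ = 2 * c := by
    intro v hv h3 h4 c hc
    obtain ⟨y, hy⟩ : ∃ y, B v y ≠ 0 := by
      by_contra hcon
      push Not at hcon
      exact hv (h.nd _ hcon)
    obtain ⟨α, β, z, hz, hz1, hz2, -, -⟩ := hproj y
    have hvz : B v z ≠ 0 := by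
      intro h5
      apply hy
      have h6 : B v u = 0 := by rw [h.swap, h3, neg_zero]
      have h7 : B v (a u) = 0 := by rw [h.swap, h4, neg_zero]
      rw [hz, map_add, map_add, map_smul, map_smul, h5, h6, h7]
      simp
    obtain ⟨d, hd⟩ := heig z hz1 hz2
    obtain ⟨e, he⟩ := heig (v + z) (by rw [map_add, h3, hz1, add_zero]) (by rw [map_add, h4, hz2, add_zero])
    have hi := indep_of_ne h hvz
    rw [LinearIndependent.pair_iff] at hi
    rw [map_add, hc, hd] at he
    have h5 := hi (c - e) (d - e) (by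
      have : c • v + d • z - e • (v + z) = 0 := by rw [he, sub_self]
      rw [← this]; module)
    have hce : c = e := sub_eq_zero.1 h5.1
    have hde : d = e := sub_eq_zero.1 h5.2
    have h6 := ha v z
    rw [hc, hd, hde, ← hce, map_smul, map_smul, LinearMap.smul_apply, smul_eq_mul, smul_eq_mul] at h6
    have hcc : c * c = 1 := by
      have h7 : (c * c - 1) * B v z = 0 := by linear_combination h6
      exact sub_eq_zero.1 ((mul_eq_zero.1 h7).resolve_right hvz)
    refine ⟨hcc, ?_⟩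
    have h8 := haa v
    rw [hc, map_smul, hc, smul_smul, hcc] at h8
    have h9 : (κ * c - 2) • v = 0 := by
      have : (κ * c - 2) • v = κ • c • v - v - (1 : F) • v := by module
      rw [this, ← h8, sub_self]
    have h10 := (smul_eq_zero.1 h9).resolve_right hv
    linear_combination c * h10 - κ * hcc
  obtain ⟨v0, hv0, hv1, hv2⟩ := exists_perp2 hn (B u) (B (a u))
  obtain ⟨c, hc⟩ := heig v0 hv1 hv2
  obtain ⟨hcc, hκc⟩ := hval v0 hv0 hv1 hv2 c hc
  subst hκc
  have hS : ∀ v, B u v = 0 → B (a u) v = 0 → a v = c • v := by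
    intro v h3 h4
    by_cases hv : v = 0
    · rw [hv]; simp
    obtain ⟨d, hd⟩ := heig v h3 h4
    obtain ⟨-, h6⟩ := hval v hv h3 h4 d hd
    rw [hd, mul_left_cancel₀ h2 h6]
  refine ⟨c, -(B u (a u))⁻¹, a u - c • u, hcc, neg_ne_zero.2 (inv_ne_zero hu), ?_, ?_⟩
  · intro h3
    apply hu
    have h4 : B u (a u - c • u) = 0 := by rw [h3, map_zero]
    rw [map_sub, map_smul, h.alt, smul_zero, sub_zero] at h4
    exact h4
  · intro x
    obtain ⟨α, β, v, hx, h3, h4, hβ, hα⟩ := hproj x
    have h5 : B (a u - c • u) x = -(B u (a u)) * (α + c * β) := by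
      rw [map_sub, map_smul, LinearMap.sub_apply, LinearMap.smul_apply, smul_eq_mul, hβ, hα]
      field_simp
      ring
    have h6 : -(B u (a u))⁻¹ * B (a u - c • u) x = α + c * β := by
      rw [h5]
      field_simp
    rw [h6]
    nth_rw 1 2 [hx]
    rw [map_add a, map_add a, map_smul a, map_smul a, hS v h3 h4, haa]
    have h7 : β • u = (c * c * β) • u := by rw [hcc, one_mul]
    have h8 : c • v + α • a u + β • ((2 * c) • a u - u) = c • v + α • a u + (β * (2 * c)) • a u - β • u := by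
      module
    rw [h8, h7]
    module

theorem trace_transv {c μ : F} {w : V} (hw : ∀ x, a x = c • x + (μ * B w x) • w)
    (g b : V ≃ₗ[F] V) : tr2 a (g * b * g⁻¹) =
      c * LinearMap.trace F V (b : V →ₗ[F] V) + μ * B w ((g * b * g⁻¹) w) := by
  have e : (a : V →ₗ[F] V) ∘ₗ ((g * b * g⁻¹ : V ≃ₗ[F] V) : V →ₗ[F] V) =
      c • ((g * b * g⁻¹ : V ≃ₗ[F] V) : V →ₗ[F] V) +
        μ • ((B w) ∘ₗ ((g * b * g⁻¹ : V ≃ₗ[F] V) : V →ₗ[F] V)).smulRight w := by
    ext x
    change a ((g * b * g⁻¹) x) = c • (g * b * g⁻¹) x + μ • (B w ((g * b * g⁻¹) x)) • w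
    rw [hw, smul_smul]
  rw [tr2, e, map_add, map_smul, map_smul, LinearMap.trace_smulRight]
  have e2 : LinearMap.trace F V ((g * b * g⁻¹ : V ≃ₗ[F] V) : V →ₗ[F] V) =
      LinearMap.trace F V (b : V →ₗ[F] V) := by
    have e3 : ((g * b * g⁻¹ : V ≃ₗ[F] V) : V →ₗ[F] V) = toEnd g * toEnd b * toEnd g⁻¹ := rfl
    rw [e3, LinearMap.trace_mul_comm, ← mul_assoc, ← toEnd_mul, inv_mul_cancel, toEnd_one, one_mul]
    rfl
  rw [e2]
  rfl

theorem caseI (h2 : (2 : F) ≠ 0) (h : IsSp B) (hn : 4 ≤ finrank F V) (hA : AllS B a b) (ha : a ∈ IsoB B)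
    (hb : b ∈ IsoB B) {κ : F} (hκ : ∀ v, a v + a⁻¹ v = κ • v) {u x0 : V}
    (hu : B u (a u) ≠ 0) (hx0 : B x0 (b x0) ≠ 0) : False := by
  obtain ⟨c, μ, w, hcc, hμ, hw0, hw⟩ := transv_struct h2 h hn ha hκ
    (fun u v huv => sq_id h2 h hn hA.symm hx0 huv) hu
  have hc0 : c ≠ 0 := by
    rintro rfl
    simp at hcc
  have haw : a w = c • w := by rw [hw, h.alt, mul_zero, zero_smul, add_zero]
  -- values of the form of `b`
  have hval : ∀ x, x ≠ 0 → c * LinearMap.trace F V (b : V →ₗ[F] V) + μ * B x (b x) = (finrank F V : F) ∨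
      c * LinearMap.trace F V (b : V →ₗ[F] V) + μ * B x (b x) = -(finrank F V : F) := by
    intro x hx
    obtain ⟨g, hg, hgx⟩ := witt_one h hx hw0
    have h3 := hA.tr hg
    rw [trace_transv hw, ← hgx, B_conj hg] at h3
    exact h3
  obtain ⟨x1, -, hx1, hq1⟩ := exists_zero (B := B) (b : V →ₗ[F] V) ⊤ (by rw [finrank_top]; omega)
  change B x1 (b x1) = 0 at hq1
  set T := LinearMap.trace F V (b : V →ₗ[F] V) with hT
  have hT2 : ∀ x, x ≠ 0 → B x (b x) = 0 ∨ μ * B x (b x) = -(2 * (c * T)) := by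
    intro x hx
    have h3 := hval x1 hx1
    have h4 := hval x hx
    rw [hq1, mul_zero, add_zero] at h3
    rcases h3 with h3 | h3 <;> rcases h4 with h4 | h4
    · left
      have : μ * B x (b x) = 0 := by linear_combination h4 - h3
      exact (mul_eq_zero.1 this).resolve_left hμ
    · right
      linear_combination h4 + h3
    · right
      linear_combination h4 + h3
    · left
      have : μ * B x (b x) = 0 := by linear_combination h4 - h3
      exact (mul_eq_zero.1 this).resolve_left hμ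
  have hx00 : x0 ≠ 0 := by
    rintro rfl
    simp at hx0
  have hD : μ * B x0 (b x0) = -(2 * (c * T)) := (hT2 x0 hx00).resolve_left hx0
  have hD0 : 2 * (c * T) ≠ 0 := by
    intro h3
    rw [h3, neg_zero] at hD
    exact (mul_ne_zero hμ hx0) hD
  -- the form of `b` vanishes on a hyperplane
  have hH : ∀ v, B x0 (b v) + B v (b x0) = 0 → B v (b v) = 0 := by
    intro v hv
    by_contra hne
    have hv0 : v ≠ 0 := by
      rintro rfl
      simp at hne
    have h3 := (hT2 v hv0).resolve_left hne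
    have hsum : x0 + v ≠ 0 := by
      intro h4
      have h5 : v = -x0 := eq_neg_of_add_eq_zero_right h4
      rw [h5, map_neg, map_neg, map_neg, LinearMap.neg_apply] at hv
      have h6 : 2 * B x0 (b x0) = 0 := by linear_combination -hv
      exact (mul_ne_zero h2 hx0) h6
    have h4 : B (x0 + v) (b (x0 + v)) = B x0 (b x0) + B v (b v) := by
      rw [map_add b, map_add B, LinearMap.add_apply, map_add (B x0), map_add (B v)]
      linear_combination hv
    rcases hT2 _ hsum with h5 | h5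
    · rw [h4] at h5
      have h6 : 2 * (2 * (c * T)) = 0 := by linear_combination hD + h3 - μ * h5
      exact (mul_ne_zero h2 hD0) h6
    · rw [h4] at h5
      apply hD0
      linear_combination hD + h3 - h5
  have hbbH : ∀ v, B x0 (b v) + B v (b x0) = 0 → b (b v) = v := by
    intro v hv
    have h3 : ∀ y, B v (b y) + B y (b v) = 0 := by
      intro y
      -- y = t x0 + y'
      set t := (B x0 (b y) + B y (b x0)) / (2 * B x0 (b x0)) with ht
      have hy' : B x0 (b (y - t • x0)) + B (y - t • x0) (b x0) = 0 := by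
        rw [map_sub b, map_smul b, map_sub (B x0), map_smul (B x0), map_sub B, map_smul B, LinearMap.sub_apply,
          LinearMap.smul_apply, smul_eq_mul, ht]
        field_simp
        ring
      have h4 := hH _ hy'
      have h5 := hH v hv
      have h6 : B x0 (b (v + (y - t • x0))) + B (v + (y - t • x0)) (b x0) = 0 := by
        rw [map_add b, map_add (B x0), map_add B, LinearMap.add_apply]
        linear_combination hv + hy'
      have h7 := hH _ h6
      rw [map_add b, map_add B, LinearMap.add_apply, map_add (B v), map_add (B (y - t • x0)), h4, h5] at h7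
      have h8 : B v (b (y - t • x0)) + B (y - t • x0) (b v) = 0 := by linear_combination h7
      rw [map_sub b, map_smul b, map_sub (B v), map_smul (B v), map_sub B, map_smul B, LinearMap.sub_apply,
        LinearMap.smul_apply, smul_eq_mul] at h8
      linear_combination h8 + t * hv
    have h4 : ∀ y, B (b (b v) - v) y = 0 := by
      intro y
      have h5 := h3 (b⁻¹ y)
      have h6 : b (b⁻¹ y) = y := LinearEquiv.apply_symm_apply b y
      rw [h6, B_inv' hb, h.swap y] at h5
      rw [map_sub, LinearMap.sub_apply]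
      linear_combination -h5
    exact sub_eq_zero.1 (h.nd _ h4)
  have hbH : ∀ v, B x0 (b v) + B v (b x0) = 0 → B x0 (b (b v)) + B (b v) (b x0) = 0 := by
    intro v hv
    rw [hbbH v hv, hb, h.swap v x0, add_neg_cancel]
  -- `b` scalar on the hyperplane
  have hfin : ∀ l : F, (l = 1 ∨ l = -1) → ¬ ∀ v, B x0 (b v) + B v (b x0) = 0 → b v = l • v := by
    intro l hl hbl
    have h3 : ∀ x, x ≠ 0 → c * T + μ * B x (b x) = l * c * (finrank F V : F) := by
      intro x hx
      obtain ⟨g, hg, hgx⟩ := witt_one h hx hw0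
      obtain ⟨ε, hε, hU⟩ := hA g hg
      obtain ⟨y, hy, hy1, hy2⟩ := exists_perp2 hn ((B x0) ∘ₗ (b : V →ₗ[F] V) + LinearMap.flip B (b x0)) (B x)
      have h4 := hU.eigen (w := g y) (by
        rw [Ne, LinearEquiv.map_eq_zero_iff]
        exact hy) (l := l * c) (by
        rw [LinearEquiv.mul_apply, conj_apply, hbl y hy1, map_smul, map_smul, hw]
        have h5 : B w (g y) = 0 := by rw [← hgx, hg, hy2]
        rw [h5, mul_zero, zero_smul, add_zero, smul_smul])
      have h5 := hU.trace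
      rw [trace_transv hw, ← hgx, B_conj hg, ← h4] at h5
      exact h5
    have h4 := h3 x0 hx00
    have h5 := h3 x1 hx1
    rw [hq1, mul_zero, add_zero] at h5
    have h6 : μ * B x0 (b x0) = 0 := by linear_combination h4 - h5
    exact (mul_ne_zero hμ hx0) h6
  -- both eigenvalues
  by_cases hp : ∃ v, v ≠ 0 ∧ b v = v
  · by_cases hm : ∃ v, v ≠ 0 ∧ b v = -v
    · obtain ⟨v1, hv1, hbv1⟩ := hp
      obtain ⟨v2, hv2, hbv2⟩ := hm
      obtain ⟨g, hg, hgx⟩ := witt_one h hv1 hw0
      obtain ⟨ε, hε, hU⟩ := hA g hg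
      have hp12 : B v1 v2 = 0 := by
        have h3 := hb v1 v2
        rw [hbv1, hbv2, map_neg] at h3
        have h4 : 2 * B v1 v2 = 0 := by linear_combination -h3
        exact (mul_eq_zero.1 h4).resolve_left h2
      have h3 := hU.eigen hw0 (l := c) (by
        rw [LinearEquiv.mul_apply]
        have h4 : (g * b * g⁻¹) w = w := by rw [← hgx, conj_apply, hbv1]
        rw [h4, haw])
      have h4 := hU.eigen (w := g v2) (by
        rw [Ne, LinearEquiv.map_eq_zero_iff]
        exact hv2) (l := -c) (by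
        rw [LinearEquiv.mul_apply, conj_apply, hbv2, map_neg, map_neg, hw]
        have h5 : B w (g v2) = 0 := by rw [← hgx, hg, hp12]
        rw [h5, mul_zero, zero_smul, add_zero, neg_smul])
      have h5 : 2 * c = 0 := by linear_combination h3 - h4
      exact (mul_ne_zero h2 hc0) h5
    · -- `b = 1` on the hyperplane
      push Not at hm
      refine hfin 1 (Or.inl rfl) fun v hv => ?_
      rw [one_smul]
      by_contra hne
      refine hm (v - b v) (fun h3 => hne (sub_eq_zero.1 h3).symm) ?_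
      rw [map_sub, hbbH v hv, neg_sub]
  · push Not at hp
    refine hfin (-1) (Or.inr rfl) fun v hv => ?_
    rw [neg_smul, one_smul]
    by_contra hne
    refine hp (v + b v) (fun h3 => hne (eq_neg_of_add_eq_zero_right h3)) ?_
    rw [map_add, hbbH v hv, add_comm]

/-- **Symplectic groups in odd characteristic.** -/
theorem sp_odd (h2 : (2 : F) ≠ 0) (h : IsSp B) (hn : 4 ≤ finrank F V) (ha : a ∈ IsoB B) (hb : b ∈ IsoB B)
    (hnsa : ¬ Scalar a) (hnsb : ¬ Scalar b) (hA : AllS B a b) : False := by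
  by_cases hqa : ∃ u, B u (a u) ≠ 0
  · obtain ⟨u, hu⟩ := hqa
    by_cases hqb : ∃ x, B x (b x) ≠ 0
    · obtain ⟨x0, hx0⟩ := hqb
      by_cases hk : ∀ x y, TI2 B x y → B x (b y) = B y (b x)
      · obtain ⟨κ, hκ⟩ := kappa h hb hk
        exact caseI h2 h hn hA.symm hb ha hκ hx0 hu
      · push Not at hk
        obtain ⟨x, y, hxy, hne⟩ := hk
        obtain ⟨κ, hκ⟩ := kappa h ha fun u' v' huv => by
          have h3 := skew_prod h2 h hn hA hu hx0 huv hxy
          exact sub_eq_zero.1 ((mul_eq_zero.1 h3).resolve_right (sub_ne_zero.2 hne))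
        exact caseI h2 h hn hA ha hb hκ hu hx0
    · push Not at hqb
      exact caseII h2 h hn hA ha hb hu hqb hnsb
  · push Not at hqa
    by_cases hqb : ∃ x, B x (b x) ≠ 0
    · obtain ⟨x0, hx0⟩ := hqb
      exact caseII h2 h hn hA.symm hb ha hx0 hqa hnsa
    · push Not at hqb
      exact caseIII h2 h hA ha hqa hqb hnsa hnsb

end Fin

end Cfsg.Agent.H445.AH.Symp
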