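import Cfsg.Agent.H445.AH.SpOdd
import Cfsg.Agent.H445.AH.ORows
import Cfsg.Agent.H144.AH.Base

/-!
# S2451 (C) (helper445): `PSp_2m(q)`

`allS_of_allConj` : the transfer from `PSp` to the isometry group; `notC_psp_odd`.
-/

set_option autoImplicit false
set_option linter.unusedSectionVars false

namespace Cfsg.Agent.H445.AH.Symp

open Module Cfsg Cfsg.Agent.H955 Cfsg.Agent.H105.Sz Cfsg.Agent.H105.SzSp Cfsg.Agent.H445.AH
open Cfsg.Agent.H144.AH Cfsg.Agent.H27.AH Cfsg.Agent.H330.ClassProd Cfsg.Agent.ClassicalGeometry.SympBasic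

variable {m : ℕ} {F : Type} [Field F]

theorem scalar_pm {V : Type*} [AddCommGroup V] [Module F V] {B : LinearMap.BilinForm F V} (h : IsSp B)
    [Nontrivial V] {g : V ≃ₗ[F] V} (hg : g ∈ IsoB B) {c : F} (hc : ∀ v, g v = c • v) : c = 1 ∨ c = -1 := by
  obtain ⟨v, hv⟩ := exists_ne (0 : V)
  obtain ⟨w, hw⟩ : ∃ w, B v w ≠ 0 := by
    by_contra hcon
    push Not at hcon
    exact hv (h.nd v hcon)
  have h1 := hg v w
  rw [hc, hc, map_smul, map_smul, LinearMap.smul_apply, smul_eq_mul, smul_eq_mul] at h1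
  have h2 : (c * c - 1) * B v w = 0 := by linear_combination h1
  exact mul_self_eq_one_iff.1 (sub_eq_zero.1 ((mul_eq_zero.1 h2).resolve_right hw))

/-- a `p`-element up to scalars -/
theorem uni_of_pj (hm : 1 ≤ m) (p : ℕ) [Fact p.Prime] [CharP F p] {z : Gm m F} {k : ℕ}
    (h : pj m F z ^ p ^ k = 1) : ∃ ε : F, (ε = 1 ∨ ε = -1) ∧ Uni z.1 ε := by
  have h1 : pj m F (z ^ p ^ k) = 1 := by rw [map_pow]; exact h
  obtain ⟨c', hc'⟩ := pj_eq_one_iff.1 h1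
  have : Nontrivial (Fin m ⊕ Fin m → F) := by
    have : Nonempty (Fin m ⊕ Fin m) := ⟨Sum.inl ⟨0, hm⟩⟩
    exact Function.nontrivial
  have hpm : c' = 1 ∨ c' = -1 := scalar_pm (isSp_sympBilin m F) (z ^ p ^ k).2 hc'
  refine ⟨c', hpm, uni_of_pow p hpm (k := k) (fun v => ?_)⟩
  rw [← hc' v, SubmonoidClass.coe_pow]

/-- The transfer. -/
theorem allS_of_allConj (hm : 1 ≤ m) (p : ℕ) [Fact p.Prime] [CharP F p] {α β : Gm m F}
    {c : PSp m F} {k : ℕ} (h : AllConj (pj m F α) (pj m F β) c) (hc : orderOf c = p ^ k) :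
    AllS (sympBilin m F) α.1 β.1 := by
  intro g hg
  obtain ⟨t, ht⟩ := isConj_iff.1 (h 1 (pj m F ⟨g, hg⟩))
  have e1 : pj m F (α * (⟨g, hg⟩ * β * ⟨g, hg⟩⁻¹)) = t * c * t⁻¹ := by
    rw [ht, map_mul, map_mul, map_mul, map_inv]
    group
  have h2 := uni_of_pj hm p (z := α * (⟨g, hg⟩ * β * ⟨g, hg⟩⁻¹)) (k := k) (by
    rw [e1, conj_pow, ← hc, pow_orderOf_eq_one, mul_one, mul_inv_cancel])
  exact h2

/-- a general transfer -/
theorem notC_of_AllS (hm : 1 ≤ m) (p : ℕ) [Fact p.Prime] [CharP F p]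
    (H : ∀ a b : (Fin m ⊕ Fin m → F) ≃ₗ[F] (Fin m ⊕ Fin m → F), a ∈ IsoB (sympBilin m F) → b ∈ IsoB (sympBilin m F) →
      ¬ Scalar a → ¬ Scalar b → AllS (sympBilin m F) a b → False) : NotC p (PSp m F) := by
  intro a b c ha hb _ hab ⟨k, hk⟩
  obtain ⟨α, rfl⟩ := pj_surj a
  obtain ⟨β, rfl⟩ := pj_surj b
  exact H α.1 β.1 α.2 β.2 (fun h => ha (pj_eq_one_iff.2 h)) (fun h => hb (pj_eq_one_iff.2 h))
    (allS_of_allConj hm p hab hk)

/-- `PSp_2m(q)`, `q` odd, `m ≥ 2` -/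
theorem notC_psp_odd (F : Type) [Field F] [Fintype F] (p : ℕ) [CharP F p] (m : ℕ) (hm : 2 ≤ m)
    (h2 : (2 : F) ≠ 0) : NotC p (PSp m F) := by
  have : Fact p.Prime := ⟨CharP.char_is_prime F p⟩
  refine notC_of_AllS (by omega) p fun a b ha hb hnsa hnsb hA => ?_
  refine sp_odd h2 (isSp_sympBilin m F) ?_ ha hb hnsa hnsb hA
  rw [Module.finrank_fintype_fun_eq_card, Fintype.card_sum, Fintype.card_fin]
  omega

end Cfsg.Agent.H445.AH.Symp
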